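import Mathlib
import Cfsg.Agent.Lib.Helper19.SPU.Defs

/-!
# Project SPU (S2316): package [BIJ]

`g ↦ (g - 1)⁻¹` is a bijection from the isometries `g` of `K` with `g - 1` invertible onto the
invertible members of the affine family `𝒜(K)` (inverse `X ↦ 1 + X⁻¹`).
-/

set_option autoImplicit false

namespace Cfsg.Agent.Lib.Helper15.SPU

open Matrix Cfsg.Agent.Lib.Helper19.SPU

universe u

section

variable {F : Type u} [Field F] {n : Type} [Fintype n] [DecidableEq n]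

/-- For mutually inverse `X`, `Y`: `1 + Y` is an isometry of `K` iff `X ∈ 𝒜(K)`. -/
theorem isom_iff_affA (K Y X : Matrix n n F) (hXY : X * Y = 1) (hYX : Y * X = 1) :
    Isom K (1 + Y) ↔ AffA K X := by
  have hXtYt : Xᵀ * Yᵀ = 1 := by rw [← Matrix.transpose_mul, hYX, Matrix.transpose_one]
  have hYtXt : Yᵀ * Xᵀ = 1 := by rw [← Matrix.transpose_mul, hXY, Matrix.transpose_one]
  have h1 : ∀ Z : Matrix n n F, Xᵀ * (Yᵀ * Z) = Z := fun Z => by
    rw [← mul_assoc, hXtYt, one_mul]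
  have h2 : ∀ Z : Matrix n n F, Yᵀ * (Xᵀ * Z) = Z := fun Z => by
    rw [← mul_assoc, hYtXt, one_mul]
  have hexp : (1 + Y)ᵀ * K * (1 + Y) = K + (Yᵀ * K + K * Y + Yᵀ * K * Y) := by
    rw [Matrix.transpose_add, Matrix.transpose_one]
    noncomm_ring
  unfold Isom AffA
  constructor
  · intro h
    rw [hexp] at h
    have hE : Yᵀ * K + K * Y + Yᵀ * K * Y = 0 := by
      have h3 : K + (Yᵀ * K + K * Y + Yᵀ * K * Y) = K + 0 := by rw [h, add_zero]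
      exact add_left_cancel h3
    have h4 : Xᵀ * (Yᵀ * K + K * Y + Yᵀ * K * Y) * X = Xᵀ * K + K * X + K := by
      simp only [mul_add, add_mul, mul_assoc, h1, hYX, mul_one]
      abel
    rw [← h4, hE, mul_zero, zero_mul]
  · intro h
    rw [hexp]
    have h4 : Yᵀ * (Xᵀ * K + K * X + K) * Y = Yᵀ * K + K * Y + Yᵀ * K * Y := by
      simp only [mul_add, add_mul, mul_assoc, h2, hXY, mul_one]
      abel
    rw [← h4, h, mul_zero, zero_mul, add_zero]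

end

/-- [BIJ] -/
theorem pkgBij : PkgBij.{u} := by
  intro F _ n _ _ K
  classical
  unfold cD cDA
  apply Nat.card_congr
  refine ⟨fun g => ⟨(g.1 - 1)⁻¹, ?_, ?_⟩, fun X => ⟨1 + X.1⁻¹, ?_, ?_⟩, ?_, ?_⟩
  · have hdet := (Matrix.isUnit_iff_isUnit_det (g.1 - 1)).mp g.2.2
    have hXY : (g.1 - 1)⁻¹ * (g.1 - 1) = 1 := Matrix.nonsing_inv_mul _ hdet
    have hYX : (g.1 - 1) * (g.1 - 1)⁻¹ = 1 := Matrix.mul_nonsing_inv _ hdet
    have hg : Isom K (1 + (g.1 - 1)) := by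
      have e : 1 + (g.1 - 1) = g.1 := by abel
      rw [e]; exact g.2.1
    exact (isom_iff_affA K (g.1 - 1) (g.1 - 1)⁻¹ hXY hYX).mp hg
  · have hdet := (Matrix.isUnit_iff_isUnit_det (g.1 - 1)).mp g.2.2
    have hXY : (g.1 - 1)⁻¹ * (g.1 - 1) = 1 := Matrix.nonsing_inv_mul _ hdet
    have hYX : (g.1 - 1) * (g.1 - 1)⁻¹ = 1 := Matrix.mul_nonsing_inv _ hdet
    exact ⟨⟨(g.1 - 1)⁻¹, g.1 - 1, hXY, hYX⟩, rfl⟩
  · have hdet := (Matrix.isUnit_iff_isUnit_det X.1).mp X.2.2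
    have hXY : X.1 * X.1⁻¹ = 1 := Matrix.mul_nonsing_inv _ hdet
    have hYX : X.1⁻¹ * X.1 = 1 := Matrix.nonsing_inv_mul _ hdet
    exact (isom_iff_affA K X.1⁻¹ X.1 hXY hYX).mpr X.2.1
  · have hdet := (Matrix.isUnit_iff_isUnit_det X.1).mp X.2.2
    have hXY : X.1 * X.1⁻¹ = 1 := Matrix.mul_nonsing_inv _ hdet
    have hYX : X.1⁻¹ * X.1 = 1 := Matrix.nonsing_inv_mul _ hdet
    have e : 1 + X.1⁻¹ - 1 = X.1⁻¹ := by abel
    rw [e]
    exact ⟨⟨X.1⁻¹, X.1, hYX, hXY⟩, rfl⟩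
  · intro g
    apply Subtype.ext
    have hdet := (Matrix.isUnit_iff_isUnit_det (g.1 - 1)).mp g.2.2
    show 1 + ((g.1 - 1)⁻¹)⁻¹ = g.1
    rw [Matrix.nonsing_inv_nonsing_inv _ hdet]
    abel
  · intro X
    apply Subtype.ext
    have hdet := (Matrix.isUnit_iff_isUnit_det X.1).mp X.2.2
    show (1 + X.1⁻¹ - 1)⁻¹ = X.1
    have e : 1 + X.1⁻¹ - 1 = X.1⁻¹ := by abel
    rw [e, Matrix.nonsing_inv_nonsing_inv _ hdet]

end Cfsg.Agent.Lib.Helper15.SPU
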