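import Mathlib
import Cfsg.Agent.Lib.Helper19.SPU.Defs

/-!
# Project SPU (S2316): package [CIJ]

The order of Mathlib's symplectic group is the number of isometries of the standard form `J`.
-/

set_option autoImplicit false

namespace Cfsg.Agent.Lib.Helper15.SPU

open Matrix Cfsg.Agent.Lib.Helper19.SPU

universe u

/-- [CIJ] -/
theorem pkgCIJ : PkgCIJ.{u} := by
  intro F _ _ m
  classical
  unfold cI
  apply Nat.card_congr
  exact Equiv.subtypeEquivRight (fun g => SymplecticGroup.mem_iff')

end Cfsg.Agent.Lib.Helper15.SPU
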